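import Cfsg.Agent.H884.Ex.SixB
import Cfsg.Agent.H106.RC.Red

/-!
# S3510, EXC: `A₅`, `A₆`, `A₈` (helper884)
-/

set_option autoImplicit false
set_option linter.unusedSectionVars false

namespace Cfsg.Agent.H884.Ex

open Equiv Equiv.Perm Cfsg.Agent.H106.RC

universe u v

section

variable {G : Type u} [Group G] [Finite G] {Ω : Type v} [Fintype Ω] [MulAction G Ω] [FaithfulSMul G Ω]

/-- `A₆` -/
theorem sta_six (T : Subgroup G) [T.Normal] (hC : Subgroup.centralizer (T : Set G) = ⊥)
    (e : T ≃* alternatingGroup (Fin 6)) (hT : T ≠ ⊥) (hprim : MulAction.IsPreprimitive G Ω) (g : G)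
    (hg : ∀ ω : Ω, MulAction.stabilizer (Subgroup.zpowers g) ω ≠ ⊥) (ω0 : Ω) :
    ∃ e' : T ≃* alternatingGroup (Fin 6), Sta (HH e' (MulAction.stabilizer G ω0)) := by
  have : Nonempty Ω := ⟨ω0⟩
  have hcov := fun ω => exists_fix hg ω
  have hnpp := not_pp hg
  have hm := orderOf_pos g
  have hord : ∀ r : ℕ, r ∣ orderOf g → orderOf (g ^ (orderOf g / r)) = r := fun r hr =>
    orderOf_pow_orderOf_div hm.ne' hr
  have hcomm : ∀ r s : ℕ, g ^ (orderOf g / r) * g ^ (orderOf g / s) = g ^ (orderOf g / s) * g ^ (orderOf g / r) :=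
    fun r s => by rw [← pow_add, ← pow_add, add_comm]
  -- primes dividing the order
  have hcT : Nat.card T = 360 := by rw [Nat.card_congr e.toEquiv, card_A6]
  have hTm : ∀ r : ℕ, r.Prime → r ∣ orderOf g → r ≠ 2 → g ^ (orderOf g / r) ∈ T := by
    intro r hr hrm h2
    apply odd_mem T hC e
    rw [hord r hrm]
    rcases hr.eq_two_or_odd with h | h
    · exact absurd h h2
    · exact h
  have hpr : ∀ r : ℕ, r.Prime → r ∣ orderOf g → r = 2 ∨ r = 3 ∨ r = 5 := by
    intro r hr hrm
    by_cases h2 : r = 2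
    · exact Or.inl h2
    have h1 := hTm r hr hrm h2
    have h3 : r ∣ 360 := by
      rw [← hcT]
      have h4 : orderOf (⟨_, h1⟩ : T) = r := (Subgroup.orderOf_coe (⟨_, h1⟩ : T)).symm.trans (hord r hrm)
      have h5 := orderOf_dvd_natCard (⟨_, h1⟩ : T)
      rwa [h4] at h5
    have h4 : r ∣ 2 ^ 3 * 3 ^ 2 * 5 := by
      have : (2 ^ 3 * 3 ^ 2 * 5 : ℕ) = 360 := by norm_num
      rwa [this]
    rcases hr.dvd_mul.1 h4 with h | h
    · rcases hr.dvd_mul.1 h with h | h
      · exact absurd ((Nat.prime_dvd_prime_iff_eq hr Nat.prime_two).1 (hr.dvd_of_dvd_pow h)) h2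
      · exact Or.inr (Or.inl ((Nat.prime_dvd_prime_iff_eq hr Nat.prime_three).1 (hr.dvd_of_dvd_pow h)))
    · exact Or.inr (Or.inr ((Nat.prime_dvd_prime_iff_eq hr Nat.prime_five).1 h))
  -- if only one prime divides, contradiction
  have hone : ∀ p : ℕ, p.Prime → (∀ r : ℕ, r.Prime → r ∣ orderOf g → r = p) → False := by
    intro p hp h
    apply hnpp
    refine ⟨p, (orderOf g).primeFactorsList.length, hp, ?_⟩
    exact Nat.eq_prime_pow_of_unique_prime_dvd hm.ne' (fun {d} hd hdm => h d hd hdm)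
  by_cases h5 : 5 ∣ orderOf g
  · exfalso
    have hc5 := hTm 5 Nat.prime_five h5 (by norm_num)
    have ho5 : orderOf (⟨_, hc5⟩ : T) = 5 :=
      (Subgroup.orderOf_coe (⟨_, hc5⟩ : T)).symm.trans (hord 5 h5)
    by_cases h3 : 3 ∣ orderOf g
    · have hc3 := hTm 3 Nat.prime_three h3 (by norm_num)
      have ho3 : orderOf (⟨_, hc3⟩ : T) = 3 :=
        (Subgroup.orderOf_coe (⟨_, hc3⟩ : T)).symm.trans (hord 3 h3)
      have hcm : Commute (⟨_, hc3⟩ : T) (⟨_, hc5⟩ : T) := Subtype.ext (hcomm 3 5)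
      have ho15 : orderOf ((⟨_, hc3⟩ : T) * (⟨_, hc5⟩ : T)) = 15 := by
        rw [hcm.orderOf_mul_eq_mul_orderOf_of_coprime (by rw [ho3, ho5]; norm_num), ho3, ho5]
      have ho : orderOf ((e ((⟨_, hc3⟩ : T) * (⟨_, hc5⟩ : T)) : alternatingGroup (Fin 6)) : Perm (Fin 6)) = 15 := by
        rw [Subgroup.orderOf_coe, MulEquiv.orderOf_eq, ho15]
      rcases cases_of _ chkE6 ((e ((⟨_, hc3⟩ : T) * (⟨_, hc5⟩ : T)) : alternatingGroup (Fin 6)) : Perm (Fin 6)) with
        h | ⟨l, h1, h2⟩
      · rw [ho] at h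
        obtain ⟨p, k, hp, hk⟩ := h
        have e1 : p = 3 := by
          have : 3 ∣ p ^ k := by rw [← hk]; norm_num
          exact ((Nat.prime_dvd_prime_iff_eq Nat.prime_three hp).1 (Nat.prime_three.dvd_of_dvd_pow this)).symm
        have e2 : p = 5 := by
          have : 5 ∣ p ^ k := by rw [← hk]; norm_num
          exact ((Nat.prime_dvd_prime_iff_eq Nat.prime_five hp).1 (Nat.prime_five.dvd_of_dvd_pow this)).symm
        omega
      · have h3 := Ex.orderOf_eq h2
        rw [ho] at h3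
        simp only [List.mem_cons, List.not_mem_nil, or_false] at h1
        rcases h1 with rfl | rfl
        · revert h3; decide
        · revert h3; decide
    · by_cases h2 : 2 ∣ orderOf g
      · refine jordan T hC e hT hprim ⟨_, hc5⟩ ho5 (g ^ (orderOf g / 2)) ?_ ?_
        · intro h
          have := hord 2 h2
          rw [h, orderOf_one] at this
          omega
        · intro ω
          obtain ⟨r, hr, hrm, hfix⟩ := hcov ω
          rcases hpr r hr hrm with rfl | rfl | rfl
          · exact Or.inl hfix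
          · exact absurd hrm h3
          · exact Or.inr hfix
      · apply hone 5 Nat.prime_five
        intro r hr hrm
        rcases hpr r hr hrm with rfl | rfl | rfl
        · exact absurd hrm h2
        · exact absurd hrm h3
        · rfl
  · by_cases h3 : 3 ∣ orderOf g
    swap
    · exfalso
      apply hone 2 Nat.prime_two
      intro r hr hrm
      rcases hpr r hr hrm with rfl | rfl | rfl
      · rfl
      · exact absurd hrm h3
      · exact absurd hrm h5
    by_cases h2 : 2 ∣ orderOf g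
    swap
    · exfalso
      apply hone 3 Nat.prime_three
      intro r hr hrm
      rcases hpr r hr hrm with rfl | rfl | rfl
      · exact absurd hrm h2
      · rfl
      · exact absurd hrm h5
    have hc3 := hTm 3 Nat.prime_three h3 (by norm_num)
    have ho3 : orderOf (⟨_, hc3⟩ : T) = 3 :=
      (Subgroup.orderOf_coe (⟨_, hc3⟩ : T)).symm.trans (hord 3 h3)
    obtain ⟨e', he'⟩ := exists_equiv_three e _ ho3
    obtain ⟨π, hπ⟩ := exists_ind_of_comm e' he' (x := g ^ (orderOf g / 2)) (hcomm 2 3)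
    have hπ2 : orderOf π = 2 := by rw [← hπ.orderOf_eq (by norm_num) hC, hord 2 h2]
    have hc := Ind.self (e := e') (⟨_, hc3⟩ : T)
    have hcom : Commute π (e' (⟨_, hc3⟩ : T) : Perm (Fin 6)) := by
      have a1 := hπ.mul hc
      have a2 := hc.mul hπ
      have a3 : g ^ (orderOf g / 2) * ((⟨_, hc3⟩ : T) : G) = ((⟨_, hc3⟩ : T) : G) * g ^ (orderOf g / 2) := hcomm 2 3
      rw [a3] at a1
      exact a1.right_unique (by norm_num) a2
    obtain ⟨htype, ho6⟩ := type_32 he' hπ2 hcom
    have hi := hπ.mul hc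
    have hgo : orderOf (g ^ (orderOf g / 2) * ((⟨_, hc3⟩ : T) : G)) = 6 := by
      rw [hi.orderOf_eq (by norm_num) hC, ho6]
    refine ⟨e', sta6 (cov_of e' (by norm_num) hC hi ?_ ω0) htype⟩
    intro ω
    rw [hgo]
    obtain ⟨r, hr, hrm, hfix⟩ := hcov ω
    have hcm : Commute (g ^ (orderOf g / 2)) (g ^ (orderOf g / 3)) := hcomm 2 3
    rcases hpr r hr hrm with rfl | rfl | rfl
    · refine ⟨2, Nat.prime_two, by norm_num, ?_⟩
      have a1 : (g ^ (orderOf g / 2) * g ^ (orderOf g / 3)) ^ (6 / 2) = g ^ (orderOf g / 2) := by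
        rw [show (6 / 2 : ℕ) = 3 by norm_num, hcm.mul_pow]
        have b1 : (g ^ (orderOf g / 2)) ^ 3 = g ^ (orderOf g / 2) := by
          have : (g ^ (orderOf g / 2)) ^ 2 = 1 := by
            have := pow_orderOf_eq_one (g ^ (orderOf g / 2))
            rwa [hord 2 h2] at this
          rw [pow_succ, this, one_mul]
        have b2 : (g ^ (orderOf g / 3)) ^ 3 = 1 := by
          have := pow_orderOf_eq_one (g ^ (orderOf g / 3))
          rwa [hord 3 h3] at this
        rw [b1, b2, mul_one]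
      change (g ^ (orderOf g / 2) * g ^ (orderOf g / 3)) ^ (6 / 2) • ω = ω
      rw [a1]; exact hfix
    · refine ⟨3, Nat.prime_three, by norm_num, ?_⟩
      have a1 : (g ^ (orderOf g / 2) * g ^ (orderOf g / 3)) ^ (6 / 3) = (g ^ (orderOf g / 3)) ^ 2 := by
        rw [show (6 / 3 : ℕ) = 2 by norm_num, hcm.mul_pow]
        have b1 : (g ^ (orderOf g / 2)) ^ 2 = 1 := by
          have := pow_orderOf_eq_one (g ^ (orderOf g / 2))
          rwa [hord 2 h2] at this
        rw [b1, one_mul]
      change (g ^ (orderOf g / 2) * g ^ (orderOf g / 3)) ^ (6 / 3) • ω = ω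
      rw [a1, pow_two, mul_smul, hfix, hfix]
    · exact absurd hrm h5

/-- the number of points -/
theorem card_of {n : ℕ} (hn : 5 ≤ n) (T : Subgroup G) [T.Normal]
    (hC : Subgroup.centralizer (T : Set G) = ⊥) (e : T ≃* alternatingGroup (Fin n)) (hT : T ≠ ⊥)
    (hprim : MulAction.IsPreprimitive G Ω) (ω0 : Ω) (h : Sta (HH e (MulAction.stabilizer G ω0)))
    (hnum : ∀ k : ℕ, k ∣ n → n.factorial ∣ 2 * k.factorial → k = n) : Fintype.card Ω = n := by
  have := trans_of T hT hprim
  rw [← Nat.card_eq_fintype_card]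
  apply hnum _ (card_dvd_of_sta (by omega) T hC e ω0 h)
  have h1 := card_dvd_factorial (Ω := Ω) T
  have : Nontrivial (Fin n) := Fin.nontrivial_iff_two_le.2 (by omega)
  have h2 := two_mul_nat_card_alternatingGroup (α := Fin n)
  rw [Nat.card_perm, Nat.card_eq_fintype_card (α := Fin n), Fintype.card_fin] at h2
  rw [← h2, ← Nat.card_congr e.toEquiv]
  exact Nat.mul_dvd_mul_left 2 h1

end

theorem num5 : ∀ k : ℕ, k ∣ 5 → Nat.factorial 5 ∣ 2 * k.factorial → k = 5 := by
  intro k hk h
  have := Nat.le_of_dvd (by norm_num) hk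
  interval_cases k <;> first | rfl | (exfalso; revert h; decide)

theorem num6 : ∀ k : ℕ, k ∣ 6 → Nat.factorial 6 ∣ 2 * k.factorial → k = 6 := by
  intro k hk h
  have := Nat.le_of_dvd (by norm_num) hk
  interval_cases k <;> first | rfl | (exfalso; revert h; decide)

theorem num8 : ∀ k : ℕ, k ∣ 8 → Nat.factorial 8 ∣ 2 * k.factorial → k = 8 := by
  intro k hk h
  have := Nat.le_of_dvd (by norm_num) hk
  interval_cases k <;> first | rfl | (exfalso; revert hk; decide) | (exfalso; revert h; decide +kernel)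

/-- **EXC** -/
theorem excStmt : ExcStmt.{u, v} := by
  intro G _ _ Ω _ _ _ T _ hexc hC hprim g hg
  have hT : T ≠ ⊥ := by
    intro h
    have h1 : ∀ {n : ℕ}, 5 ≤ n → (T ≃* alternatingGroup (Fin n)) → False := by
      intro n hn e
      have hs : IsSimpleGroup (alternatingGroup (Fin n)) := alternatingGroup.isSimpleGroup (by
        rw [Nat.card_eq_fintype_card, Fintype.card_fin]; exact hn)
      obtain ⟨x, hx⟩ := exists_ne (1 : alternatingGroup (Fin n))
      apply hx
      have h2 : (e.symm x : T) = 1 := by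
        apply Subtype.ext
        have h3 := h.le (e.symm x).2
        rwa [Subgroup.mem_bot] at h3
      have := congrArg e h2
      rwa [MulEquiv.apply_symm_apply, map_one] at this
    rcases hexc with ⟨⟨e⟩⟩ | ⟨⟨e⟩⟩ | ⟨⟨e⟩⟩
    · exact h1 (le_refl 5) e
    · exact h1 (by norm_num) e
    · exact h1 (by norm_num) e
  have hne : Nonempty Ω := by
    by_contra hno
    rw [not_nonempty_iff] at hno
    apply hT
    rw [eq_bot_iff]
    intro t _
    rw [Subgroup.mem_bot]
    exact eq_of_smul_eq_smul (α := Ω) (fun ω => (hno.false ω).elim)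
  obtain ⟨ω0⟩ := hne
  have : Nonempty Ω := ⟨ω0⟩
  rcases hexc with ⟨⟨e⟩⟩ | ⟨⟨e⟩⟩ | ⟨⟨e⟩⟩
  · left
    refine ⟨⟨e⟩, ?_⟩
    obtain ⟨σ, hσ⟩ := exists_ind (by norm_num) (by norm_num) e g
    rcases sta5 (cov_of e (by norm_num) hC hσ (fun ω => exists_fix hg ω) ω0) with h | h
    · rw [← hσ.orderOf_eq (by norm_num) hC] at h
      exact (not_pp hg h).elim
    · exact card_of (by norm_num) T hC e hT hprim ω0 h num5
  · right; left
    refine ⟨⟨e⟩, ?_⟩
    obtain ⟨e', h⟩ := sta_six T hC e hT hprim g hg ω0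
    exact card_of (by norm_num) T hC e' hT hprim ω0 h num6
  · right; right
    refine ⟨⟨e⟩, ?_⟩
    obtain ⟨σ, hσ⟩ := exists_ind (by norm_num) (by norm_num) e g
    rcases sta8 (cov_of e (by norm_num) hC hσ (fun ω => exists_fix hg ω) ω0) with h | h
    · rw [← hσ.orderOf_eq (by norm_num) hC] at h
      exact (not_pp hg h).elim
    · exact card_of (by norm_num) T hC e hT hprim ω0 h num8

end Cfsg.Agent.H884.Ex
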