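import Cfsg.Agent.H884.Ex.Red
import Cfsg.Agent.H884.Ex.SixA
import Cfsg.Agent.H952.F4.MaxA

/-!
# S3510, EXC: `A₆` (helper884)
-/

set_option autoImplicit false
set_option maxRecDepth 100000
set_option linter.unusedSectionVars false

namespace Cfsg.Agent.H884.Ex

open Equiv Equiv.Perm

universe u v

theorem card_A6 : Nat.card (alternatingGroup (Fin 6)) = 360 := by
  have h1 := two_mul_nat_card_alternatingGroup (α := Fin 6)
  rw [Nat.card_perm, Nat.card_eq_fintype_card (α := Fin 6), Fintype.card_fin] at h1
  have h2 : Nat.factorial 6 = 720 := by decide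
  omega

section

variable {G : Type u} [Group G] [Finite G] {Ω : Type v} [Fintype Ω] [MulAction G Ω] [FaithfulSMul G Ω]

/-- `G` embeds in the automorphism group of `T` -/
theorem card_le_aut {n : ℕ} (T : Subgroup G) [T.Normal] (hC : Subgroup.centralizer (T : Set G) = ⊥)
    (e : T ≃* alternatingGroup (Fin n)) : Nat.card G ≤ Nat.card (MulAut (alternatingGroup (Fin n))) := by
  have : Finite (MulAut T) := Finite.of_injective (fun σ : MulAut T => (σ : T → T)) DFunLike.coe_injective
  have h1 : Function.Injective (MulAut.conjNormal : G →* MulAut T) := by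
    rw [injective_iff_map_eq_one]
    intro x hx
    have h2 : Ind e x 1 := by
      intro t
      rw [hx]; simp
    exact h2.left_unique hC Ind.one
  rw [← Nat.card_congr (MulAut.congr e).toEquiv]
  exact Nat.card_le_card_of_injective _ h1

/-- squares lie in `T` -/
theorem sq_mem (T : Subgroup G) [T.Normal] (hC : Subgroup.centralizer (T : Set G) = ⊥)
    (e : T ≃* alternatingGroup (Fin 6)) (x : G) : x * x ∈ T := by
  obtain ⟨a, ha⟩ := H952.F4.MaxA.sq_six ((e.symm.trans (MulAut.conjNormal x)).trans e)
  obtain ⟨s, rfl⟩ := e.surjective a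
  have h1 : Ind e (x * x) (e s : Perm (Fin 6)) := by
    intro t
    have h2 := congrArg Subtype.val (DFunLike.congr_fun ha (e t))
    have h3 : (((e.symm.trans (MulAut.conjNormal x)).trans e * (e.symm.trans (MulAut.conjNormal x)).trans e :
        MulAut (alternatingGroup (Fin 6))) (e t)) = e (MulAut.conjNormal (x * x) t) := by
      rw [MulAut.mul_apply]
      change e (MulAut.conjNormal x (e.symm (e (MulAut.conjNormal x (e.symm (e t)))))) = _
      rw [MulEquiv.symm_apply_apply, MulEquiv.symm_apply_apply, map_mul, MulAut.mul_apply]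
    rw [h3] at h2
    rw [h2, MulAut.conj_apply]
    rfl
  have h2 : x * x = s := h1.left_unique hC (Ind.self s)
  rw [h2]
  exact s.2

theorem odd_mem (T : Subgroup G) [T.Normal] (hC : Subgroup.centralizer (T : Set G) = ⊥)
    (e : T ≃* alternatingGroup (Fin 6)) {x : G} (hx : orderOf x % 2 = 1) : x ∈ T := by
  have h1 : (x * x) ^ ((orderOf x + 1) / 2) = x := by
    rw [← pow_two, ← pow_mul, Nat.mul_div_cancel' (by omega), pow_succ, pow_orderOf_eq_one, one_mul]
  rw [← h1]
  exact T.pow_mem (sq_mem T hC e x) _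

open Classical in
/-- the case of an element of order 10 -/
theorem jordan (T : Subgroup G) [T.Normal] (hC : Subgroup.centralizer (T : Set G) = ⊥)
    (e : T ≃* alternatingGroup (Fin 6)) (hT : T ≠ ⊥) (hprim : MulAction.IsPreprimitive G Ω) (c : T)
    (hc : orderOf c = 5) (x : G) (hx1 : x ≠ 1) (hcov : ∀ ω : Ω, x • ω = ω ∨ (c : G) • ω = ω) : False := by
  have := trans_of T hT hprim
  have hF := fix_le_two (Ω := Ω) e c hc
  let f := MulAction.toPermHom G Ω
  have hfinj : Function.Injective f := MulAction.toPerm_injective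
  have hfa : ∀ (y : G) (ω : Ω), f y ω = y • ω := fun y ω => rfl
  have hX1 : f x ≠ 1 := fun h => hx1 (hfinj (h.trans (map_one f).symm))
  have hFc : Nat.card {ω : Ω // c • ω = ω} = (Finset.univ.filter fun ω : Ω => (c : G) • ω = ω).card := by
    rw [Nat.card_eq_fintype_card, Fintype.card_subtype]
    rfl
  rw [hFc] at hF
  have hsub : (f x).support ⊆ Finset.univ.filter fun ω : Ω => (c : G) • ω = ω := by
    intro ω hω
    rw [mem_support, hfa] at hω
    rw [Finset.mem_filter]
    exact ⟨Finset.mem_univ _, (hcov ω).resolve_left hω⟩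
  have h1 := Finset.card_le_card hsub
  have h2 : ¬ (f x).support.card ≤ 1 := fun h => hX1 (card_support_le_one.1 h)
  have h3 : (f x).support.card = 2 := by omega
  have h4 : (f x).IsSwap := card_support_eq_two.1 h3
  -- `G` is the symmetric group
  have hp : MulAction.IsPreprimitive f.range Ω := by
    let φ : G → f.range := fun y => ⟨f y, ⟨y, rfl⟩⟩
    let F : Ω →ₑ[φ] Ω := { toFun := id, map_smul' := fun y ω => rfl }
    exact MulAction.IsPreprimitive.of_surjective (f := F) Function.surjective_id
  have htop := subgroup_eq_top_of_isPreprimitive_of_isSwap_mem hp (f x) h4 ⟨x, rfl⟩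
  have hcard : Nat.card G = (Nat.card Ω).factorial := by
    rw [← Nat.card_perm]
    exact Nat.card_congr (Equiv.ofBijective f ⟨hfinj, MonoidHom.range_eq_top.1 htop⟩)
  have hle := (card_le_aut T hC e).trans H952.F4.MaxA.card_aut_six
  have hge : 360 ≤ Nat.card G := by
    rw [← card_A6, ← Nat.card_congr e.toEquiv]
    exact Nat.card_le_card_of_injective _ T.subtype_injective
  have h6 : Nat.card Ω = 6 := by
    rw [hcard] at hle hge
    by_contra hne
    rcases Nat.lt_or_ge (Nat.card Ω) 6 with h | h
    · have := Nat.factorial_le (show Nat.card Ω ≤ 5 by omega)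
      have h5 : Nat.factorial 5 = 120 := by decide
      omega
    · have := Nat.factorial_le (show 7 ≤ Nat.card Ω by omega)
      have h5 : Nat.factorial 7 = 5040 := by decide
      omega
  -- the element of order 5
  have ho : orderOf (f c) = 5 := by
    rw [orderOf_injective f hfinj, Subgroup.orderOf_coe]; exact hc
  obtain ⟨k, hk⟩ := cycleType_prime_order (σ := f c) (by rw [ho]; exact Nat.prime_five)
  have h7 := sum_cycleType (f c)
  rw [hk, ho, Multiset.sum_replicate, smul_eq_mul] at h7
  have h8 : (f c).support = (Finset.univ.filter fun ω : Ω => (c : G) • ω = ω)ᶜ := by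
    ext ω
    rw [mem_support, hfa, Finset.mem_compl, Finset.mem_filter]
    simp
  rw [h8, Finset.card_compl, ← Nat.card_eq_fintype_card, h6] at h7
  omega

end

/-! ### the exotic automorphism -/

open Cfsg.Agent.LFourA.AltPsiAut Cfsg.Agent.Lib.AltCarmichael Cfsg.Agent.StandardComponent.AltAut in
theorem exists_not_NE : ∃ α : MulAut (alternatingGroup (Fin 6)), α ∉ NE := by
  obtain ⟨φ, hφ⟩ := exists_hom (m := 4) (by norm_num) rel_xo
  have hinj : Function.Injective φ := by
    have hs : IsSimpleGroup (alternatingGroup (Fin 6)) := alternatingGroup.isSimpleGroup (by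
      rw [Nat.card_eq_fintype_card, Fintype.card_fin]; norm_num)
    rw [← MonoidHom.ker_eq_bot_iff]
    rcases hs.eq_bot_or_eq_top_of_normal φ.ker inferInstance with h | h
    · exact h
    · exfalso
      have h1 : (⟨cyc 4 0, cyc_mem 4 0 (by norm_num)⟩ : alternatingGroup (Fin (4 + 2))) ∈ φ.ker := by
        rw [h]; trivial
      rw [MonoidHom.mem_ker, hφ 0 (by norm_num)] at h1
      have := congrArg Subtype.val h1
      revert this; decide
  let ε : MulAut (alternatingGroup (Fin 6)) := MulEquiv.ofBijective φ ((Finite.injective_iff_bijective).1 hinj)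
  refine ⟨ε, fun h => ?_⟩
  have h1 := h ⟨cyc 4 0, cyc_mem 4 0 (by norm_num)⟩ (isThreeCycle_cyc (by norm_num))
  have h2 : ε ⟨cyc 4 0, cyc_mem 4 0 (by norm_num)⟩ = xo 0 := hφ 0 (by norm_num)
  rw [h2] at h1
  have h3 := h1.card_support
  revert h3
  decide

open Cfsg.Agent.LFourA.AltPsiAut in
/-- an element of order 3 is a three-cycle for a suitable isomorphism -/
theorem exists_equiv_three {T : Type u} [Group T] (e : T ≃* alternatingGroup (Fin 6)) (x : T) (hx : orderOf x = 3) :
    ∃ e' : T ≃* alternatingGroup (Fin 6), (e' x : Perm (Fin 6)).IsThreeCycle := by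
  rcases three_or (x := e x) (by rw [MulEquiv.orderOf_eq]; exact hx) with h | h
  · exact ⟨e, h⟩
  · obtain ⟨α, hα⟩ := exists_not_NE
    obtain ⟨g, hg⟩ := exists_conj_33 (type_of_not_mem hα u3_three) h
    let β : MulAut (alternatingGroup (Fin 6)) := MulAut.conj g * α
    have hβ : β u3 = e x := by
      rw [MulAut.mul_apply, MulAut.conj_apply]; exact hg
    refine ⟨e.trans β.symm, ?_⟩
    have : (e.trans β.symm) x = u3 := by
      rw [MulEquiv.trans_apply, ← hβ, MulEquiv.symm_apply_apply]
    rw [this]
    exact u3_three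

open Cfsg.Agent.LFourA.AltPsiAut in
/-- an element commuting with a three-cycle is induced by a permutation -/
theorem exists_ind_of_comm {G : Type u} [Group G] {T : Subgroup G} [T.Normal] (e : T ≃* alternatingGroup (Fin 6))
    {c : T} (hc : (e c : Perm (Fin 6)).IsThreeCycle) {x : G} (hx : x * c = c * x) : ∃ π : Perm (Fin 6), Ind e x π := by
  have h1 : (e.symm.trans (MulAut.conjNormal x)).trans e ∈ NE := by
    intro y hy
    rw [all_of_one ((e.symm.trans (MulAut.conjNormal x)).trans e) hc y hy]
    have : ((e.symm.trans (MulAut.conjNormal x)).trans e) (e c) = e c := by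
      change e (MulAut.conjNormal x (e.symm (e c))) = e c
      rw [MulEquiv.symm_apply_apply]
      congr 1
      apply Subtype.ext
      rw [MulAut.conjNormal_apply, hx, mul_inv_cancel_right]
    rw [this]
    exact hc
  obtain ⟨π, hπ⟩ := exists_perm h1
  refine ⟨π, fun t => ?_⟩
  rw [← hπ (e t)]
  change _ = ((e (MulAut.conjNormal x (e.symm (e t))) : alternatingGroup (Fin 6)) : Perm (Fin 6))
  rw [MulEquiv.symm_apply_apply]

/-- the 6-cycle -/
def z6 : Perm (Fin 6) := swap 0 1 * swap 1 2 * swap 2 3 * swap 3 4 * swap 4 5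

theorem z6_type : z6.cycleType = ↑([6] : List ℕ) := by decide +kernel
theorem z6_pow_type : (z6 ^ 4).cycleType = {3, 3} := by decide +kernel

theorem not_pp_six : ¬ PP 6 := by
  rintro ⟨p, k, hp, h⟩
  have h2 : p = 2 := by
    have : 2 ∣ p ^ k := by rw [← h]; norm_num
    exact ((Nat.prime_dvd_prime_iff_eq Nat.prime_two hp).1 (Nat.prime_two.dvd_of_dvd_pow this)).symm
  have h3 : p = 3 := by
    have : 3 ∣ p ^ k := by rw [← h]; norm_num
    exact ((Nat.prime_dvd_prime_iff_eq Nat.prime_three hp).1 (Nat.prime_three.dvd_of_dvd_pow this)).symm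
  omega

/-- an involution times a commuting three-cycle has type `3 + 2` -/
theorem type_32 {π c : Perm (Fin 6)} (hc : c.IsThreeCycle) (hπ : orderOf π = 2) (hcomm : Commute π c) :
    (π * c).cycleType = ↑([3, 2] : List ℕ) ∧ orderOf (π * c) = 6 := by
  have ho : orderOf (π * c) = 6 := by
    rw [hcomm.orderOf_mul_eq_mul_orderOf_of_coprime (by rw [hπ, hc.orderOf]; norm_num), hπ, hc.orderOf]
  refine ⟨?_, ho⟩
  rcases cases_of _ chkE6 (π * c) with h | ⟨l, h1, h2⟩
  · rw [ho] at h; exact absurd h not_pp_six
  simp only [List.mem_cons, List.not_mem_nil, or_false] at h1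
  rcases h1 with rfl | rfl
  · exact h2
  · exfalso
    have h3 : IsConj z6 (π * c) := by rw [isConj_iff_cycleType_eq, z6_type, h2]
    obtain ⟨d, hd⟩ := isConj_iff.1 h3
    have h4 : (π * c) ^ 4 = c := by
      rw [hcomm.mul_pow]
      have e1 : π ^ 4 = 1 := by
        have : π ^ 2 = 1 := by rw [← hπ]; exact pow_orderOf_eq_one π
        calc π ^ 4 = (π ^ 2) ^ 2 := by rw [← pow_mul]
          _ = 1 := by rw [this, one_pow]
      have e2 : c ^ 4 = c := by
        have : c ^ 3 = 1 := by rw [← hc.orderOf]; exact pow_orderOf_eq_one c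
        rw [pow_succ, this, one_mul]
      rw [e1, e2, one_mul]
    have h5 : (π * c) ^ 4 = d * z6 ^ 4 * d⁻¹ := by rw [← hd, conj_pow]
    have h6 := hc
    rw [IsThreeCycle, ← h4, h5, cycleType_conj, z6_pow_type] at h6
    revert h6
    decide

end Cfsg.Agent.H884.Ex
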